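import Mathlib
import Cfsg.Agent.Lib.Helper99.GUSP.Defs

set_option autoImplicit false

/-!
Package [IDX] for S5976 (GUSP): the index of `N(K) ∩ Sp` in `Sp` divides
`q^(d(d+1)/2) ∏_{j<d} (q^(j+1) ∓ 1)`.
-/

namespace Cfsg.Agent.Lib.Helper87.GUSP

open Matrix
open Cfsg.Agent.Lib.Helper99.GUSP

universe u

theorem idx_arith (q d : ℕ) (hq : 1 ≤ q) :
    q ^ (d ^ 2) * ∏ i ∈ Finset.range d, (q ^ (2 * (i + 1)) - 1) =
    (q ^ (d * (d - 1) / 2) *
      ∏ i ∈ Finset.range d, (if Even i then q ^ (i + 1) + 1 else q ^ (i + 1) - 1)) *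
    (q ^ (d * (d + 1) / 2) *
      ∏ j ∈ Finset.range d, (if Even j then q ^ (j + 1) - 1 else q ^ (j + 1) + 1)) := by
  have hexp : d ^ 2 = d * (d - 1) / 2 + d * (d + 1) / 2 := by
    obtain ⟨t, ht⟩ := Nat.even_mul_pred_self d
    have h2 : d * (d + 1) = d * (d - 1) + 2 * d := by
      cases d with
      | zero => rfl
      | succ n =>
        simp only [Nat.add_sub_cancel]
        ring
    have h3 : d ^ 2 = d * (d - 1) + d := by
      cases d with
      | zero => rfl
      | succ n =>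
        simp only [Nat.add_sub_cancel]
        ring
    rw [h2, h3, ht]
    omega
  have hprod : ∀ i : ℕ, (q ^ (2 * (i + 1)) - 1) =
      (if Even i then q ^ (i + 1) + 1 else q ^ (i + 1) - 1) *
      (if Even i then q ^ (i + 1) - 1 else q ^ (i + 1) + 1) := by
    intro i
    obtain ⟨A, hA⟩ : ∃ A, q ^ (i + 1) = A + 1 :=
      ⟨q ^ (i + 1) - 1, by have := Nat.one_le_pow (i + 1) q hq; omega⟩
    have h2 : q ^ (2 * (i + 1)) = (A + 2) * A + 1 := by
      rw [mul_comm 2, pow_mul, hA]; ring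
    rw [h2, hA]
    split_ifs
    · simp only [Nat.add_sub_cancel]
    · simp only [Nat.add_sub_cancel]
      ring
  rw [hexp, pow_add, Finset.prod_congr rfl (fun i _ => hprod i), Finset.prod_mul_distrib]
  ring

/-- [IDX] -/
theorem pkgIdx : Cfsg.Agent.Lib.Helper99.GUSP.PkgIdx.{u} := by
  intro hNorm hNF hSp hGU F _ _ hodd d hd K a α ha hα hK
  classical
  obtain ⟨S, hS1, hS2, hS3⟩ := hGU hodd d a ha
  obtain ⟨g, hg, hgα⟩ := hNF hodd d a α ha hα
  obtain ⟨G, hG⟩ : ∃ G : Matrix (SI d) (SI d) F, G = (g : Matrix (SI d) (SI d) F) := ⟨_, rfl⟩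
  obtain ⟨G', hG'⟩ : ∃ G' : Matrix (SI d) (SI d) F,
      G' = ((g⁻¹ : GL (SI d) F) : Matrix (SI d) (SI d) F) := ⟨_, rfl⟩
  have h1 : G' * G = 1 := by
    rw [hG, hG', ← Units.val_mul, inv_mul_cancel, Units.val_one]
  have h2 : G * G' = 1 := by
    rw [hG, hG', ← Units.val_mul, mul_inv_cancel, Units.val_one]
  rw [← hG] at hgα
  have h3 : G' * α = alpha0 d a * G' := by
    calc G' * α = G' * (α * G) * G' := by
          rw [Matrix.mul_assoc, Matrix.mul_assoc, h2, Matrix.mul_one]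
      _ = G' * (G * alpha0 d a) * G' := by rw [hgα]
      _ = alpha0 d a * G' := by rw [← Matrix.mul_assoc G', h1, Matrix.one_mul]
  have hS'card : Nat.card (S.map (MulAut.conj g).toMonoidHom) = Nat.card S :=
    Subgroup.card_map_of_injective (MulAut.conj g).injective
  have hS'le : S.map (MulAut.conj g).toMonoidHom ≤
      Cfsg.Geo.subalgebraNormalizer K ⊓ Cfsg.spGL d F := by
    rintro _ ⟨s, hs, rfl⟩
    have hsSp : s ∈ Cfsg.spGL d F := hS1 hs
    have hmem : g * s * g⁻¹ ∈ Cfsg.spGL d F :=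
      (Cfsg.spGL d F).mul_mem ((Cfsg.spGL d F).mul_mem hg hsSp) ((Cfsg.spGL d F).inv_mem hg)
    rw [Subgroup.mem_inf]
    refine ⟨?_, hmem⟩
    show g * s * g⁻¹ ∈ Cfsg.Geo.subalgebraNormalizer K
    rw [hNorm hodd d hd K a α ha hα hK _ hmem]
    left
    rw [Units.val_mul, Units.val_mul, ← hG, ← hG']
    calc G * (s : Matrix (SI d) (SI d) F) * G' * α
        = G * (s : Matrix (SI d) (SI d) F) * (G' * α) := by rw [Matrix.mul_assoc]
      _ = G * (s : Matrix (SI d) (SI d) F) * (alpha0 d a * G') := by rw [h3]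
      _ = G * ((s : Matrix (SI d) (SI d) F) * alpha0 d a) * G' := by
          simp only [Matrix.mul_assoc]
      _ = G * (alpha0 d a * (s : Matrix (SI d) (SI d) F)) * G' := by rw [hS2 s hs]
      _ = (G * alpha0 d a) * (s : Matrix (SI d) (SI d) F) * G' := by
          simp only [Matrix.mul_assoc]
      _ = α * G * (s : Matrix (SI d) (SI d) F) * G' := by rw [← hgα]
      _ = α * (G * (s : Matrix (SI d) (SI d) F) * G') := by simp only [Matrix.mul_assoc]
  have hL1 : Nat.card (S.map (MulAut.conj g).toMonoidHom) ∣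
      Nat.card ↥(Cfsg.Geo.subalgebraNormalizer K ⊓ Cfsg.spGL d F) :=
    Subgroup.card_dvd_of_le hS'le
  have hL2 : Nat.card ↥(Cfsg.Geo.subalgebraNormalizer K ⊓ Cfsg.spGL d F) *
      (Cfsg.Geo.subalgebraNormalizer K).relIndex (Cfsg.spGL d F) = Nat.card (Cfsg.spGL d F) := by
    have := Subgroup.relIndex_mul_relIndex ⊥ (Cfsg.Geo.subalgebraNormalizer K ⊓ Cfsg.spGL d F)
      (Cfsg.spGL d F) bot_le inf_le_right
    rwa [Subgroup.relIndex_bot_left, Subgroup.relIndex_bot_left, Subgroup.inf_relIndex_right]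
      at this
  have hq : 1 ≤ Fintype.card F := Fintype.card_pos
  have hspc := hSp (F := F) d
  rw [idx_arith _ d hq, ← hS3, ← hS'card] at hspc
  obtain ⟨c, hc⟩ := hL1
  have hpos : 0 < Nat.card (S.map (MulAut.conj g).toMonoidHom) := Nat.card_pos
  have hfin : Nat.card (S.map (MulAut.conj g).toMonoidHom) *
      (c * (Cfsg.Geo.subalgebraNormalizer K).relIndex (Cfsg.spGL d F)) =
      Nat.card (S.map (MulAut.conj g).toMonoidHom) *
      (Fintype.card F ^ (d * (d + 1) / 2) *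
        ∏ j ∈ Finset.range d,
          (if Even j then Fintype.card F ^ (j + 1) - 1 else Fintype.card F ^ (j + 1) + 1)) := by
    rw [← hspc, ← hL2, hc]
    ring
  have hfin2 := Nat.eq_of_mul_eq_mul_left hpos hfin
  exact Dvd.intro_left c hfin2

end Cfsg.Agent.Lib.Helper87.GUSP
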