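import Mathlib
import Cfsg.Agent.Lib.Helper99.GUSP.Asm
import Cfsg.Agent.Lib.Helper94.Symp
import Cfsg.Agent.Lib.Helper13.Symp

set_option autoImplicit false

/-!
Package [INVM] for S5976 (GUSP): an `x ∈ Sp` with `x² = -1` anticommutes with some `α`
(`α² = a`, `α` skew-adjoint).
-/

namespace Cfsg.Agent.Lib.Helper87.GUSP

open Matrix
open Cfsg.Agent.Lib.Helper99.GUSP
open Cfsg.Agent.Lib.Helper94 (sf_eq sf_self sf_swap sf_add_left sf_add_right sf_smul_left
  sf_smul_right)

universe u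

/-- A family of vectors with the Gram matrix of the standard basis gives a symplectic matrix
whose columns are these vectors. -/
theorem sp_of_gram {F : Type u} [Field F] (d : ℕ) (e' : SI d → (SI d → F))
    (hgram : ∀ i j, Cfsg.sympForm d F (e' i) (e' j) = Matrix.J (Fin d) F i j) :
    ∃ g : GL (SI d) F, g ∈ Cfsg.spGL d F ∧
      ∀ i r, (g : Matrix (SI d) (SI d) F) r i = e' i r := by
  classical
  obtain ⟨G, hG⟩ : ∃ G : Matrix (SI d) (SI d) F, G = Matrix.of (fun r i => e' i r) := ⟨_, rfl⟩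
  have hmem : G ∈ Matrix.symplecticGroup (Fin d) F := by
    rw [SymplecticGroup.mem_iff']
    ext i j
    rw [← hgram i j]
    simp only [Matrix.mul_apply, Matrix.transpose_apply, Cfsg.sympForm, dotProduct,
      Matrix.mulVec, hG, Matrix.of_apply]
    simp only [Finset.sum_mul, Finset.mul_sum, mul_assoc]
    rw [Finset.sum_comm]
  have h1 : G * ((⟨G, hmem⟩ : Matrix.symplecticGroup (Fin d) F)⁻¹ :
      Matrix.symplecticGroup (Fin d) F).1 = 1 :=
    congrArg Subtype.val (mul_inv_cancel (⟨G, hmem⟩ : Matrix.symplecticGroup (Fin d) F))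
  have h2 : ((⟨G, hmem⟩ : Matrix.symplecticGroup (Fin d) F)⁻¹ :
      Matrix.symplecticGroup (Fin d) F).1 * G = 1 :=
    congrArg Subtype.val (inv_mul_cancel (⟨G, hmem⟩ : Matrix.symplecticGroup (Fin d) F))
  refine ⟨⟨G, _, h1, h2⟩, ?_, fun i r => by subst hG; rfl⟩
  intro u v
  exact Cfsg.Agent.Lib.Helper13.sympForm_mulVec_of_mem d hmem u v

/-- A skew-adjoint `X` with `X² = -1` and a "peeled" family admits a skew-adjoint involution
`R` anticommuting with `X`. -/
theorem exists_R {F : Type u} [Field F] (d : ℕ) (X : Matrix (SI d) (SI d) F)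
    (hX2 : X * X = -1)
    (hXs : ∀ u v : SI d → F, Cfsg.sympForm d F (X *ᵥ u) v = - Cfsg.sympForm d F u (X *ᵥ v))
    (u : Fin d → (SI d → F)) (hc : ∀ j, Cfsg.sympForm d F (X *ᵥ u j) (u j) ≠ 0)
    (hoff : ∀ j k, j ≠ k →
      Cfsg.sympForm d F (u j) (u k) = 0 ∧ Cfsg.sympForm d F (X *ᵥ u j) (u k) = 0) :
    ∃ R : Matrix (SI d) (SI d) F, R * R = 1 ∧
      (∀ v w : SI d → F, Cfsg.sympForm d F (R *ᵥ v) w = - Cfsg.sympForm d F v (R *ᵥ w)) ∧
      R * X = -(X * R) := by
  classical
  obtain ⟨c, hcdef⟩ : ∃ c : Fin d → F, c = fun j => Cfsg.sympForm d F (X *ᵥ u j) (u j) :=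
    ⟨_, rfl⟩
  have hc' : ∀ j, c j ≠ 0 := by intro j; rw [hcdef]; exact hc j
  have hcj : ∀ j, Cfsg.sympForm d F (X *ᵥ u j) (u j) = c j := by intro j; rw [hcdef]
  obtain ⟨w, hwdef⟩ : ∃ w : Fin d → (SI d → F), w = fun j => (c j)⁻¹ • (X *ᵥ u j) := ⟨_, rfl⟩
  have hw : ∀ j, w j = (c j)⁻¹ • (X *ᵥ u j) := by intro j; rw [hwdef]
  have huu : ∀ j k, Cfsg.sympForm d F (u j) (u k) = 0 := by
    intro j k
    by_cases hjk : j = k
    · subst hjk; exact sf_self d _
    · exact (hoff j k hjk).1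
  have hXu : ∀ j k, Cfsg.sympForm d F (X *ᵥ u j) (u k) = if j = k then c j else 0 := by
    intro j k
    by_cases hjk : j = k
    · subst hjk; rw [if_pos rfl, hcj]
    · rw [if_neg hjk]; exact (hoff j k hjk).2
  have hXX : ∀ v : SI d → F, X *ᵥ (X *ᵥ v) = -v := by
    intro v
    rw [Matrix.mulVec_mulVec, hX2, Matrix.neg_mulVec, Matrix.one_mulVec]
  have hgram : ∀ i j, Cfsg.sympForm d F (Sum.elim u w i) (Sum.elim u w j)
      = Matrix.J (Fin d) F i j := by
    intro i j
    rcases i with i | i <;> rcases j with j | j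
    · simp only [Sum.elim_inl, Matrix.J, Matrix.fromBlocks_apply₁₁, Matrix.zero_apply]
      exact huu i j
    · simp only [Sum.elim_inl, Sum.elim_inr, Matrix.J, Matrix.fromBlocks_apply₁₂,
        Matrix.neg_apply, Matrix.one_apply]
      rw [hw, sf_smul_right, sf_swap, hXu]
      by_cases hij : i = j
      · subst hij
        rw [if_pos rfl, if_pos rfl]
        field_simp [hc' i]
      · rw [if_neg hij, if_neg (fun h => hij h.symm)]
        simp
    · simp only [Sum.elim_inl, Sum.elim_inr, Matrix.J, Matrix.fromBlocks_apply₂₁,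
        Matrix.one_apply]
      rw [hw, sf_smul_left, hXu]
      by_cases hij : i = j
      · subst hij
        rw [if_pos rfl, if_pos rfl]
        field_simp [hc' i]
      · rw [if_neg hij, if_neg hij]
        simp
    · simp only [Sum.elim_inr, Matrix.J, Matrix.fromBlocks_apply₂₂, Matrix.zero_apply]
      rw [hw, hw, sf_smul_left, sf_smul_right, hXs, hXX]
      have h0 : Cfsg.sympForm d F (u i) (-u j) = 0 := by
        have : (-u j) = (-1 : F) • u j := by simp
        rw [this, sf_smul_right, huu, mul_zero]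
      rw [h0]
      simp
  obtain ⟨g, hg, hcol⟩ := sp_of_gram d (Sum.elim u w) hgram
  obtain ⟨G, hG⟩ : ∃ G : Matrix (SI d) (SI d) F, G = (g : Matrix (SI d) (SI d) F) := ⟨_, rfl⟩
  obtain ⟨G', hG'⟩ : ∃ G' : Matrix (SI d) (SI d) F,
      G' = ((g⁻¹ : GL (SI d) F) : Matrix (SI d) (SI d) F) := ⟨_, rfl⟩
  have h1 : G' * G = 1 := by rw [hG, hG']; exact gl_inv_mul g
  have h2 : G * G' = 1 := by rw [hG, hG']; exact gl_mul_inv g
  have hcolG : ∀ i r, G r i = Sum.elim u w i r := by intro i r; rw [hG]; exact hcol i r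
  -- matrices are determined by their values on the columns of `G`
  have hmv : ∀ (A : Matrix (SI d) (SI d) F) (i : SI d) (r : SI d),
      (A *ᵥ Sum.elim u w i) r = (A * G) r i := by
    intro A i r
    simp only [Matrix.mulVec, dotProduct, Matrix.mul_apply, hcolG]
  have hext : ∀ A A' : Matrix (SI d) (SI d) F,
      (∀ i, A *ᵥ Sum.elim u w i = A' *ᵥ Sum.elim u w i) → A = A' := by
    intro A A' h
    have hAG : A * G = A' * G := by
      ext r i
      rw [← hmv, ← hmv, h i]
    calc A = A * G * G' := by rw [Matrix.mul_assoc, h2, Matrix.mul_one]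
      _ = A' * G * G' := by rw [hAG]
      _ = A' := by rw [Matrix.mul_assoc, h2, Matrix.mul_one]
  -- the standard skew involution
  obtain ⟨δ, hδ⟩ : ∃ δ : SI d → F, δ = Sum.elim (fun _ => 1) (fun _ => -1) := ⟨_, rfl⟩
  have hδl : ∀ j : Fin d, δ (Sum.inl j) = 1 := by intro j; rw [hδ]; rfl
  have hδr : ∀ j : Fin d, δ (Sum.inr j) = -1 := by intro j; rw [hδ]; rfl
  have hR0 : IsAlpha d (1 : F) (Matrix.diagonal δ) := by
    constructor
    · rw [Matrix.diagonal_mul_diagonal, one_smul, ← Matrix.diagonal_one]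
      congr 1
      ext i
      rcases i with i | i
      · rw [hδl]; simp
      · rw [hδr]; simp
    · intro v v'
      rw [sf_eq, sf_eq, ← Finset.sum_neg_distrib]
      apply Finset.sum_congr rfl
      intro i _
      simp only [Matrix.mulVec_diagonal, hδl, hδr]
      ring
  have hR := isAlpha_conj hR0 g hg
  rw [← hG, ← hG'] at hR
  obtain ⟨R, hRdef⟩ : ∃ R : Matrix (SI d) (SI d) F, R = G * Matrix.diagonal δ * G' := ⟨_, rfl⟩
  rw [← hRdef] at hR
  refine ⟨R, ?_, hR.2, ?_⟩
  · rw [hR.1, one_smul]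
  · -- action on the columns
    have hRG : R * G = G * Matrix.diagonal δ := by
      rw [hRdef, Matrix.mul_assoc, h1, Matrix.mul_one]
    have hRe : ∀ i, R *ᵥ Sum.elim u w i = δ i • Sum.elim u w i := by
      intro i
      ext r
      rw [hmv, hRG, Matrix.mul_diagonal, hcolG, Pi.smul_apply, smul_eq_mul, mul_comm]
    have hXu' : ∀ j, X *ᵥ u j = c j • w j := by
      intro j
      rw [hw, smul_smul, mul_inv_cancel₀ (hc' j), one_smul]
    have hXw : ∀ j, X *ᵥ w j = (-(c j)⁻¹) • u j := by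
      intro j
      rw [hw, Matrix.mulVec_smul, hXX]
      simp
    have hRu : ∀ j, R *ᵥ u j = u j := by
      intro j
      have := hRe (Sum.inl j)
      rw [hδl, one_smul] at this
      exact this
    have hRw : ∀ j, R *ᵥ w j = - w j := by
      intro j
      have := hRe (Sum.inr j)
      rw [hδr] at this
      simpa using this
    apply hext
    intro i
    rw [Matrix.neg_mulVec, ← Matrix.mulVec_mulVec, ← Matrix.mulVec_mulVec]
    rcases i with j | j
    · simp only [Sum.elim_inl]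
      rw [hXu', Matrix.mulVec_smul, hRw, hRu, hXu']
      simp
    · simp only [Sum.elim_inr]
      rw [hXw, Matrix.mulVec_smul, hRu, hRw, Matrix.mulVec_neg, hXw]
      simp

/-- [INVM] -/
theorem pkgInvM : Cfsg.Agent.Lib.Helper99.GUSP.PkgInvM.{u} := by
  intro hPeel F _ _ hodd d a ha x hx hxx
  classical
  obtain ⟨X, hXdef⟩ : ∃ X : Matrix (SI d) (SI d) F, X = (x : Matrix (SI d) (SI d) F) :=
    ⟨_, rfl⟩
  rw [← hXdef] at hxx
  have hx' : ∀ u v : SI d → F,
      Cfsg.sympForm d F (X *ᵥ u) (X *ᵥ v) = Cfsg.sympForm d F u v := by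
    rw [hXdef]; exact hx
  have hXs : ∀ u v : SI d → F,
      Cfsg.sympForm d F (X *ᵥ u) v = - Cfsg.sympForm d F u (X *ᵥ v) := by
    intro u v
    have h := hx' (X *ᵥ u) v
    rw [Matrix.mulVec_mulVec, hxx, Matrix.neg_mulVec, Matrix.one_mulVec] at h
    rw [← h]
    have : (-u) = (-1 : F) • u := by simp
    rw [this, sf_smul_left]
    ring
  have h2 : (2 : F) ≠ 0 := by
    apply Ring.two_ne_zero
    intro hch
    rw [FiniteField.even_card_iff_char_two] at hch
    rcases hodd with ⟨k, hk⟩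
    omega
  have hXα : IsAlpha d (-1 : F) X := ⟨by rw [hxx]; simp, hXs⟩
  obtain ⟨u, hc, hoff⟩ := hPeel h2 d (-1) X (by simp) hXα
  obtain ⟨R, hRR, hRs, hRX⟩ := exists_R d X hxx hXs u hc hoff
  obtain ⟨s, t, hst⟩ : ∃ s t : F, s ^ 2 + t ^ 2 = a := by
    have hR : Fintype.card F % 2 = 1 := by
      rcases hodd with ⟨k, hk⟩
      omega
    obtain ⟨s, t, h⟩ := FiniteField.exists_root_sum_quadratic
      (f := (Polynomial.X : Polynomial F) ^ 2)
      (g := (Polynomial.X : Polynomial F) ^ 2 - Polynomial.C a)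
      (Polynomial.degree_X_pow 2) (Polynomial.degree_X_pow_sub_C (by norm_num) a) hR
    refine ⟨s, t, ?_⟩
    simp only [Polynomial.eval_pow, Polynomial.eval_X, Polynomial.eval_sub,
      Polynomial.eval_C] at h
    linear_combination h
  rw [← hXdef]
  have hRXv : ∀ v : SI d → F, R *ᵥ (X *ᵥ v) = -(X *ᵥ (R *ᵥ v)) := by
    intro v
    rw [Matrix.mulVec_mulVec, hRX, Matrix.neg_mulVec, ← Matrix.mulVec_mulVec]
  refine ⟨s • R + t • (X * R), ⟨?_, ?_⟩, Or.inr ?_⟩
  · have hYY : X * R * (X * R) = 1 := by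
      calc X * R * (X * R) = X * (R * X) * R := by simp only [Matrix.mul_assoc]
        _ = X * (-(X * R)) * R := by rw [hRX]
        _ = -(X * X * (R * R)) := by
            simp only [Matrix.mul_neg, Matrix.neg_mul, Matrix.mul_assoc]
        _ = 1 := by rw [hxx, hRR]; simp
    have hRY : R * (X * R) = -X := by
      rw [← Matrix.mul_assoc, hRX, Matrix.neg_mul, Matrix.mul_assoc, hRR, Matrix.mul_one]
    have hYR : X * R * R = X := by rw [Matrix.mul_assoc, hRR, Matrix.mul_one]
    calc (s • R + t • (X * R)) * (s • R + t • (X * R))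
        = (s * s) • (R * R) + (t * s) • (R * (X * R)) + (s * t) • (X * R * R)
            + (t * t) • (X * R * (X * R)) := by
          simp only [Matrix.add_mul, Matrix.mul_add, Matrix.smul_mul, Matrix.mul_smul, smul_smul,
            smul_add]
          abel
      _ = a • (1 : Matrix (SI d) (SI d) F) := by
          rw [hRR, hRY, hYR, hYY, ← hst]
          module
  · intro v w
    rw [Matrix.add_mulVec, Matrix.add_mulVec, Matrix.smul_mulVec, Matrix.smul_mulVec,
      Matrix.smul_mulVec, Matrix.smul_mulVec, ← Matrix.mulVec_mulVec, ← Matrix.mulVec_mulVec,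
      sf_add_left, sf_add_right, sf_smul_left, sf_smul_left, sf_smul_right, sf_smul_right,
      hRs, hXs]
    have h3 : Cfsg.sympForm d F (R *ᵥ v) (X *ᵥ w) = - Cfsg.sympForm d F v (R *ᵥ (X *ᵥ w)) :=
      hRs v (X *ᵥ w)
    have h5 : X *ᵥ (R *ᵥ w) = -(R *ᵥ (X *ᵥ w)) := by rw [hRXv, neg_neg]
    have h4 : Cfsg.sympForm d F v (-(R *ᵥ (X *ᵥ w)))
        = - Cfsg.sympForm d F v (R *ᵥ (X *ᵥ w)) := by
      have : (-(R *ᵥ (X *ᵥ w))) = (-1 : F) • (R *ᵥ (X *ᵥ w)) := by simp
      rw [this, sf_smul_right]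
      ring
    rw [h3, h5, h4]
    ring
  · have hXXR : X * (X * R) = -R := by
      rw [← Matrix.mul_assoc, hxx, Matrix.neg_mul, Matrix.one_mul]
    have hXRX : X * R * X = R := by
      rw [Matrix.mul_assoc, hRX, Matrix.mul_neg, hXXR, neg_neg]
    rw [Matrix.mul_add, Matrix.add_mul, Matrix.mul_smul, Matrix.mul_smul, Matrix.smul_mul,
      Matrix.smul_mul, hXXR, hRX, hXRX]
    module

end Cfsg.Agent.Lib.Helper87.GUSP
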